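import Cfsg.Agent.PERM.KQ.Orb

/-! The path recursion: a permutation group of degree `n ≥ 3` has at most `√3 ^ (n - 1)` classes. -/

set_option autoImplicit false

namespace CL.KQ

open Finset MulAction Equiv

variable {Ω : Type*} [Fintype Ω] [DecidableEq Ω] {H K K' : Subgroup (Perm Ω)} {g : Perm Ω} {c s : Ω}

/-- the coset `g K`. -/
def cs (g : Perm Ω) (K : Subgroup (Perm Ω)) : Set (Perm Ω) := {x | g⁻¹ * x ∈ K}

/-- open states. -/
def Op (K' : Subgroup (Perm Ω)) : Prop := ∀ (g : Perm Ω) (c s : Ω) (K : Subgroup (Perm Ω)),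
  (∀ k, k ∈ K' ↔ g * k * g⁻¹ ∈ K) → K' ⊓ stabilizer (Perm Ω) c = K ⊓ stabilizer (Perm Ω) s →
  Cov (K' ⊓ stabilizer (Perm Ω) c) (cs g K') (W K' univ * ρ (o K' c).card)

/-- closed states. -/
def Cl (L : Subgroup (Perm Ω)) : Prop := ∀ g : Perm Ω, (∀ k, k ∈ L ↔ g * k * g⁻¹ ∈ L) →
  Cov L (cs g L) (W L univ)

omit [Fintype Ω] [DecidableEq Ω] in
theorem conj_cs (hK : ∀ k, k ∈ K' ↔ g * k * g⁻¹ ∈ K) {x : Perm Ω} (hx : x ∈ cs g K') (k : Perm Ω) :
    k ∈ K' ↔ x * k * x⁻¹ ∈ K := by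
  rw [show x * k * x⁻¹ = g * (g⁻¹ * x * k * (g⁻¹ * x)⁻¹) * g⁻¹ by group, ← hK,
    Subgroup.mul_mem_cancel_right _ (inv_mem hx), Subgroup.mul_mem_cancel_left _ hx]

omit [Fintype Ω] [DecidableEq Ω] in
theorem cs_conj (hK : ∀ k, k ∈ K' ↔ g * k * g⁻¹ ∈ K) {x h : Perm Ω} (hx : x ∈ cs g K') (h1 : h ∈ K')
    (h2 : h ∈ K) : h⁻¹ * x * h ∈ cs g K' := by
  change g⁻¹ * (h⁻¹ * x * h) ∈ K'
  rw [show g⁻¹ * (h⁻¹ * x * h) = (g⁻¹ * h⁻¹ * g) * (g⁻¹ * x) * h by group]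
  exact mul_mem (mul_mem ((hK _).2 (by simpa [mul_assoc] using h2)) hx) h1

theorem step (hK : ∀ k, k ∈ K' ↔ g * k * g⁻¹ ∈ K) (h1 : H = K' ⊓ stabilizer (Perm Ω) c)
    (h2 : H = K ⊓ stabilizer (Perm Ω) s) (ih : Op H) (Y : Finset Ω) :
    Cov H {x | x ∈ cs g K' ∧ x c ∈ Y} (W H univ * Sg H Y) := by
  have hm : ∀ k, k ∈ H ↔ k ∈ K' ∧ k c = c := fun k => by rw [h1]; rfl
  have hm' : ∀ k ∈ H, k ∈ K := fun k hk => by rw [h2] at hk; exact hk.1
  rw [Sg, mul_sum]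
  refine (Cov.sum (H := H) _ (fun D => {x | x ∈ cs g K' ∧ x c ∈ D}) _ fun D hD => ?_).mono le_rfl
    (fun x hx => ⟨x, ⟨_, mem_image_of_mem _ hx.2, hx.1, self_mem_o _ _⟩, 1, one_mem _, by simp⟩) le_rfl
  by_cases hne : Set.Nonempty {x | x ∈ cs g K' ∧ x c ∈ D}
  swap
  · exact Cov.empty hne (mul_nonneg (W_nn _ _) (zero_le_one.trans (one_le_ρ _)))
  obtain ⟨x0, hx0, hD0⟩ := hne
  obtain ⟨b, -, rfl⟩ := mem_image.1 hD
  rw [← o_eq hD0]
  refine (ih x0 (x0 c) s (K ⊓ stabilizer (Perm Ω) (x0 c)) (fun k => ?_)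
    (by rw [h2, inf_right_comm])).mono inf_le_left ?_ le_rfl
  · rw [hm, conj_cs hK hx0 k]
    simp
  · rintro x ⟨hx, hxc⟩
    obtain ⟨h, hh, e⟩ := mem_o.1 hxc
    refine ⟨h⁻¹ * x * h, (hm _).2 ⟨?_, ?_⟩, h, hh, by group⟩
    · have := K'.mul_mem (K'.inv_mem hx0) (cs_conj hK hx ((hm h).1 hh).1 (hm' h hh))
      simpa [mul_assoc] using this
    · simp [((hm h).1 hh).2, ← e]

theorem img (hK : ∀ k, k ∈ K' ↔ g * k * g⁻¹ ∈ K) {x : Perm Ω} (hx : x ∈ cs g K') :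
    x c ∈ o K (g c) := by
  rw [o_conj hK]
  exact mem_image.2 ⟨_, mem_o.2 ⟨_, hx, rfl⟩, by simp⟩

theorem W_first (h2 : H = K ⊓ stabilizer (Perm Ω) s) :
    Iv H (o K s \ {s}) ∧ (o K s \ {s}).card + 1 = (o K s).card ∧
    W H univ = W H (o K s \ {s}) * W H (univ \ o K s) := by
  have hH : H ≤ K := h2 ▸ inf_le_left
  have hs : ∀ k ∈ H, k s = s := fun k hk => by rw [h2] at hk; exact hk.2
  have i1 : Iv H {s} := o_fix hs ▸ iv_o H s
  have hsub : {s} ⊆ o K s := singleton_subset_iff.2 (self_mem_o K s)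
  refine ⟨((iv_o K s).mono hH).sdiff i1, card_sdiff_add_card_eq_card hsub, ?_⟩
  rw [W_split ((iv_o K s).mono hH) (subset_univ _), W_split i1 hsub,
    W_fix (Y := {s}) fun k hk y hy => by rw [mem_singleton.1 hy, hs k hk], one_mul]

theorem W_top (K : Subgroup (Perm Ω)) (s : Ω) : W K univ = w (o K s).card * W K (univ \ o K s) := by
  rw [W_split (iv_o K s) (subset_univ _), W_o]

theorem other (hK : ∀ k, k ∈ K' ↔ g * k * g⁻¹ ∈ K) (h1 : H = K' ⊓ stabilizer (Perm Ω) c)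
    (h2 : H = K ⊓ stabilizer (Perm Ω) s) (ih : Op H) (hd : (o K' c).card = (o K s).card)
    (hn : g c ∉ o K s) : Cov H (cs g K') (W K univ) := by
  have hH : H ≤ K := h2 ▸ inf_le_left
  refine (step hK h1 h2 ih (o K (g c))).mono le_rfl
    (fun x hx => ⟨x, ⟨hx, img hK hx⟩, 1, one_mem _, by simp⟩) ?_
  obtain ⟨i1, e1, e2⟩ := W_first h2
  have iv : Iv K (univ \ o K s) := (iv_univ K).sdiff (iv_o K s)
  have hsub : o K (g c) ⊆ univ \ o K s := iv.sub (mem_sdiff.2 ⟨mem_univ _, hn⟩)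
  have e3 : (o K (g c)).card = (o K s \ {s}).card + 1 := by
    rw [o_conj hK, card_image_of_injective _ g.injective, hd, e1]
  rw [e2, W_top K s, W_split ((iv_o K _).mono hH) hsub, W_split (iv_o K _) hsub, W_o, e3, ← e1]
  have b1 := (W_parts i1).1
  have b2 := (W_parts ((iv_o K (g c)).mono hH)).2.2
  have b3 := W_mono hH _ (iv.sdiff (iv_o K (g c)))
  rw [e3] at b2
  have b4 := (mul_le_mul b1 b2 (mul_nonneg (W_nn _ _) (Sg_nn _ _))
    (zero_le_one.trans (one_le_w _))).trans (two_le _)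
  have := mul_le_mul b4 b3 (W_nn _ _) (mul_self_nonneg _)
  linarith

theorem closed (L : Subgroup (Perm Ω)) (ih : ∀ H < L, Cl H ∧ Op H) : Cl L := by
  intro g hK
  by_cases hs : ∀ k ∈ L, ∀ s, k s = s
  · refine ⟨{g}, by simpa using one_le_W L univ, fun x hx => ⟨g, mem_singleton_self g, 1, one_mem _, ?_⟩⟩
    have : g⁻¹ * x = 1 := Equiv.ext (hs _ hx)
    simpa [inv_mul_eq_one] using this
  push Not at hs
  obtain ⟨k, hk, s, hs⟩ := hs
  have hlt : L ⊓ stabilizer (Perm Ω) s < L := inf_lt_left.2 fun h => hs (h hk)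
  by_cases hn : g s ∈ o L s
  swap
  · exact (other hK rfl rfl (ih _ hlt).2 rfl hn).mono inf_le_left
      (fun x hx => ⟨x, hx, 1, one_mem _, by simp⟩) le_rfl
  have iv : Iv L (univ \ o L s) := (iv_univ L).sdiff (iv_o L s)
  have c1 := step hK rfl rfl (ih _ hlt).2 (o L s \ {s})
  have c2 : Cov L {x | x ∈ cs g L ∧ ∀ y ∈ o L s, x y = y} (W L (univ \ o L s)) := by
    by_cases hne : Set.Nonempty {x | x ∈ cs g L ∧ ∀ y ∈ o L s, x y = y}
    swap
    · exact Cov.empty hne (W_nn _ _)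
    obtain ⟨x0, hx0, h0⟩ := hne
    have h0' : ∀ y ∈ o L s, x0⁻¹ y = y := fun y hy => by rw [Perm.inv_eq_iff_eq, h0 y hy]
    obtain ⟨M, hM⟩ : ∃ M : Subgroup (Perm Ω), ∀ k, k ∈ M ↔ k ∈ L ∧ ∀ y ∈ o L s, k y = y :=
      ⟨L ⊓ fixingSubgroup (Perm Ω) (o L s : Set Ω), fun k => by
        rw [Subgroup.mem_inf, mem_fixingSubgroup_iff]; rfl⟩
    have hML : M ≤ L := fun k hk => ((hM k).1 hk).1
    refine ((ih M (hML.lt_of_ne fun e => hs (((hM k).1 (e ▸ hk)).2 s (self_mem_o L s)))).1 x0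
      fun k => ?_).mono hML ?_ ?_
    · rw [hM, hM, conj_cs hK hx0 k]
      refine and_congr_right fun _ => forall₂_congr fun y hy => ?_
      rw [Perm.mul_apply, Perm.mul_apply, h0' y hy, ← Perm.eq_inv_iff_eq (f := x0), h0' y hy]
    · rintro x ⟨hx, hx'⟩
      refine ⟨x, (hM _).2 ⟨?_, fun y hy => by rw [Perm.mul_apply, hx' y hy, h0' y hy]⟩, 1, one_mem _,
        by simp⟩
      simpa [mul_assoc] using L.mul_mem (L.inv_mem hx0) hx
    · rw [W_split ((iv_o L s).mono hML) (subset_univ _), W_fix fun k hk => ((hM k).1 hk).2, one_mul]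
      exact W_mono hML _ iv
  refine ((c1.mono inf_le_left (fun x hx => hx) le_rfl).union c2).mono le_rfl (fun x hx => ?_) ?_
  · refine ⟨x, ?_, 1, one_mem _, by simp⟩
    by_cases h : ∀ y ∈ o L s, x y = y
    · exact Or.inr ⟨hx, h⟩
    push Not at h
    obtain ⟨y, hy, h⟩ := h
    obtain ⟨l, hl, rfl⟩ := mem_o.1 hy
    have h3 := cs_conj hK hx hl hl
    refine Or.inl ⟨l⁻¹ * x * l, ⟨h3, mem_sdiff.2 ⟨o_eq hn ▸ img hK h3, fun e => h ?_⟩⟩, l, hl, by group⟩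
    simpa [Equiv.symm_apply_eq] using e
  · obtain ⟨i1, e1, e2⟩ := W_first (K := L) (s := s) rfl
    rw [e2, W_top L s, ← e1]
    have := mul_le_mul (W_parts i1).2.2 (W_mono (inf_le_left (b := stabilizer (Perm Ω) s)) _ iv)
      (W_nn _ _) ((mul_nonneg (W_nn _ _) (Sg_nn _ _)).trans (W_parts i1).2.2)
    linarith

theorem opened (K' : Subgroup (Perm Ω)) (hc : Cl K') (ih : ∀ H < K', Cl H ∧ Op H) : Op K' := by
  intro g c s K hK h2
  have hρ := one_le_ρ (o K' c).card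
  have hW : W K' univ ≤ W K' univ * ρ (o K' c).card := le_mul_of_one_le_right (W_nn _ _) hρ
  rcases (inf_le_left : K' ⊓ stabilizer (Perm Ω) c ≤ K').eq_or_lt with e | hlt
  · have hle : K' ≤ K := e.symm.le.trans (h2.le.trans inf_le_left)
    obtain rfl : K' = K := Subgroup.eq_of_le_of_card_ge hle (card_conj hK).ge
    exact (hc g hK).mono e.ge (fun x hx => ⟨x, hx, 1, one_mem _, by simp⟩) hW
  have hd : (o K' c).card = (o K s).card := by
    have e1 := card_o K' c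
    rw [h2, card_conj hK, ← card_o K s] at e1
    exact Nat.eq_of_mul_eq_mul_left Nat.card_pos e1
  by_cases hn : g c ∈ o K s
  swap
  · exact (other hK rfl h2 (ih _ hlt).2 hd hn).mono le_rfl (fun x hx => ⟨x, hx, 1, one_mem _, by simp⟩)
      ((W_conj hK).le.trans hW)
  refine ((step hK rfl h2 (ih _ hlt).2 {s}).union (step hK rfl h2 (ih _ hlt).2 (o K s \ {s}))).mono le_rfl
    (fun x hx => ⟨x, ?_, 1, one_mem _, by simp⟩) ?_
  · by_cases h : x c ∈ ({s} : Finset Ω)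
    · exact Or.inl ⟨hx, h⟩
    · exact Or.inr ⟨hx, mem_sdiff.2 ⟨o_eq hn ▸ img hK hx, h⟩⟩
  · obtain ⟨i1, e1, e2⟩ := W_first h2
    have e4 : Sg (K' ⊓ stabilizer (Perm Ω) c) {s} = 1 := by
      rw [Sg, image_singleton, sum_singleton, o_fix fun k hk => by rw [h2] at hk; exact hk.2,
        card_singleton]
      rfl
    rw [e4, e2, ← W_conj hK, W_top K s, hd, ← e1]
    have := mul_le_mul ((W_parts i1).2.1.trans (φ_le _))
      (W_mono (h2.le.trans inf_le_left) _ ((iv_univ K).sdiff (iv_o K s))) (W_nn _ _)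
      (mul_nonneg (zero_le_one.trans (one_le_w _)) (zero_le_one.trans (one_le_ρ _)))
    linarith

theorem all (L : Subgroup (Perm Ω)) : Cl L ∧ Op L := by
  induction L using WellFoundedLT.induction with
  | ind L ih => exact ⟨closed L ih, opened L (closed L ih) ih⟩

theorem main (S : Subgroup (Perm Ω)) (hn : 3 ≤ Fintype.card Ω) :
    Nat.card (ConjClasses S) ^ 2 ≤ 3 ^ (Fintype.card Ω - 1) := by
  have h1 : Cov S S (w (Fintype.card Ω)) := ((all S).1 1 (by simp)).mono le_rfl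
    (fun x hx => ⟨x, by simpa [cs] using hx, 1, one_mem _, by simp⟩) (W_parts (iv_univ S)).1
  obtain ⟨k, hk⟩ : ∃ k, Fintype.card Ω = k + 3 := ⟨_, (Nat.sub_add_cancel hn).symm⟩
  have h2 := pow_le_pow_left₀ (Nat.cast_nonneg _) h1.card 2
  rw [hk, w_sq] at h2
  rw [hk]
  exact_mod_cast h2

end CL.KQ
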