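import Mathlib

/-! Weights for the class number bound of permutation groups. -/

set_option autoImplicit false

namespace CL.KQ

open Finset

/-- `√3`. -/
noncomputable def r : ℝ := √3

theorem r_sq : r * r = 3 := Real.mul_self_sqrt (by norm_num)

theorem r_lo : 1.732 ≤ r := Real.le_sqrt_of_sq_le (by norm_num)

theorem r_hi : r ≤ 1.7321 := Real.sqrt_le_iff.2 ⟨by norm_num, by norm_num⟩

theorem one_le_pow (k : ℕ) : 1 ≤ r ^ k := one_le_pow₀ (by linarith [r_lo])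

/-- weight of an orbit. -/
noncomputable def w : ℕ → ℝ
  | 0 => 1
  | 1 => 1
  | 2 => 2
  | k + 3 => 3 * r ^ k

/-- factor of an open state. -/
noncomputable def ρ : ℕ → ℝ
  | _ + 3 => 11 / 8
  | _ => 1

/-- bound for `∏ w * (1 + ∑ ρ)`. -/
noncomputable def φ : ℕ → ℝ
  | 0 => 1
  | 1 => 2
  | 2 => 4
  | k + 3 => 11 / 8 * (3 * (r ^ k * r))

theorem one_le_w : ∀ m, 1 ≤ w m
  | 0 => le_rfl
  | 1 => le_rfl
  | 2 => one_le_two
  | k + 3 => by have := one_le_pow k; simp only [w]; linarith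

theorem one_le_ρ : ∀ m, 1 ≤ ρ m
  | 0 => le_rfl
  | 1 => le_rfl
  | 2 => le_rfl
  | _ + 3 => by simp only [ρ]; norm_num

theorem w3 (k : ℕ) : w (k + 3) = 3 * r ^ k := rfl
theorem w4 (k : ℕ) : w (k + 4) = 3 * (r ^ k * r) := by rw [← pow_succ]; rfl
theorem w5 (k : ℕ) : w (k + 5) = 9 * r ^ k := by
  rw [show k + 5 = k + 1 + 1 + 3 from rfl, w3, pow_succ, pow_succ, mul_assoc, r_sq]; ring
theorem w6 (k : ℕ) : w (k + 6) = 9 * (r ^ k * r) := by rw [← pow_succ]; exact w5 (k + 1)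
theorem w7 (k : ℕ) : w (k + 7) = 27 * r ^ k := by
  rw [show k + 7 = k + 1 + 1 + 5 from rfl, w5, pow_succ, pow_succ, mul_assoc, r_sq]; ring
theorem φw (k : ℕ) : φ (k + 3) = 11 / 8 * w (k + 4) := by rw [w4]; rfl

theorem lo (k : ℕ) : 1.732 * r ^ k ≤ r ^ k * r ∧ r ^ k * r ≤ 1.7321 * r ^ k ∧ 1 ≤ r ^ k := by
  have := one_le_pow k
  refine ⟨?_, ?_, this⟩ <;> nlinarith [r_lo, r_hi]

theorem num : ∀ a m : ℕ, w (a + 1) * w m ≤ w (m + a + 1) ∧
    w (a + 1) * φ m + w (a + 1) * ρ (a + 1) * w m ≤ φ (m + a + 1) ∧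
    w (a + 1) * φ m + w (a + 1) * (ρ (a + 1) - 1) * w m ≤ w (m + a + 2) - 1
  | 0, 0 => by norm_num [w, φ, ρ]
  | 0, 1 => by norm_num [w, φ, ρ]
  | 1, 0 => by norm_num [w, φ, ρ]
  | 0, 2 => by have := r_lo; norm_num [w, φ, ρ]; constructor <;> linarith
  | 1, 1 => by have := r_lo; norm_num [w, φ, ρ]; constructor <;> linarith
  | 1, 2 => by
    have := r_lo; have := r_sq; norm_num [w, φ, ρ]; refine ⟨?_, ?_, ?_⟩ <;> nlinarith
  | 0, m + 3 => by
    obtain ⟨h1, h2, h3⟩ := lo m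
    rw [show m + 3 + 0 + 1 = m + 1 + 3 from rfl, φw, φw, show m + 1 + 3 = m + 4 from rfl,
      show m + 1 + 4 = m + 5 from rfl, show m + 3 + 0 + 2 = m + 5 from rfl, w3 m, w4 m, w5 m]
    simp only [w, ρ]
    refine ⟨?_, ?_, ?_⟩ <;> linarith
  | 1, m + 3 => by
    obtain ⟨h1, h2, h3⟩ := lo m
    rw [show m + 3 + 1 + 1 = m + 2 + 3 from rfl, φw, φw, show m + 2 + 3 = m + 5 from rfl,
      show m + 2 + 4 = m + 6 from rfl, show m + 3 + 1 + 2 = m + 6 from rfl, w3 m, w4 m, w5 m, w6 m]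
    simp only [w, ρ]
    refine ⟨?_, ?_, ?_⟩ <;> linarith
  | a + 2, 0 => by
    obtain ⟨h1, h2, h3⟩ := lo a
    rw [show 0 + (a + 2) + 1 = a + 3 by omega, show 0 + (a + 2) + 2 = a + 4 by omega,
      show a + 2 + 1 = a + 3 from rfl, φw, w3 a, w4 a]
    simp only [w, ρ, φ]
    refine ⟨?_, ?_, ?_⟩ <;> linarith
  | a + 2, 1 => by
    obtain ⟨h1, h2, h3⟩ := lo a
    rw [show 1 + (a + 2) + 1 = a + 1 + 3 by omega, show 1 + (a + 2) + 2 = a + 5 by omega,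
      show a + 2 + 1 = a + 3 from rfl, φw, show a + 1 + 3 = a + 4 from rfl,
      show a + 1 + 4 = a + 5 from rfl, w3 a, w4 a, w5 a]
    simp only [w, ρ, φ]
    refine ⟨?_, ?_, ?_⟩ <;> linarith
  | a + 2, 2 => by
    obtain ⟨h1, h2, h3⟩ := lo a
    rw [show 2 + (a + 2) + 1 = a + 2 + 3 by omega, show 2 + (a + 2) + 2 = a + 6 by omega,
      show a + 2 + 1 = a + 3 from rfl, φw, show a + 2 + 3 = a + 5 from rfl,
      show a + 2 + 4 = a + 6 from rfl, w3 a, w5 a, w6 a]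
    simp only [w, ρ, φ]
    refine ⟨?_, ?_, ?_⟩ <;> linarith
  | a + 2, m + 3 => by
    obtain ⟨h1, h2, h3⟩ := lo (a + m)
    rw [show m + 3 + (a + 2) + 1 = a + m + 3 + 3 by omega, show m + 3 + (a + 2) + 2 = a + m + 7 by omega,
      show a + 2 + 1 = a + 3 from rfl, φw, φw, show a + m + 3 + 3 = a + m + 6 from rfl,
      show a + m + 3 + 4 = a + m + 7 from rfl, w3 a, w3 m, w4 m, w6 (a + m), w7 (a + m)]
    simp only [ρ]
    rw [pow_add] at *
    refine ⟨?_, ?_, ?_⟩ <;> linarith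

theorem parts {ι : Type*} (I : Finset ι) (a : ι → ℕ) (ha : ∀ i ∈ I, 0 < a i) :
    ∏ i ∈ I, w (a i) ≤ w (∑ i ∈ I, a i) ∧
    (∏ i ∈ I, w (a i)) * (1 + ∑ i ∈ I, ρ (a i)) ≤ φ (∑ i ∈ I, a i) ∧
    (∏ i ∈ I, w (a i)) * ∑ i ∈ I, ρ (a i) ≤ w (∑ i ∈ I, a i + 1) - 1 := by
  classical
  induction I using Finset.induction_on with
  | empty => simp [w, φ]
  | insert i I hi ih =>
    obtain ⟨h1, h2, -⟩ := ih fun j hj => ha j (mem_insert_of_mem hj)
    obtain ⟨b, hb⟩ : ∃ b, a i = b + 1 := ⟨a i - 1, by have := ha i (mem_insert_self _ _); omega⟩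
    rw [prod_insert hi, sum_insert hi, sum_insert hi, hb]
    generalize ∑ i ∈ I, a i = m at *
    generalize ∏ i ∈ I, w (a i) = P at *
    generalize ∑ i ∈ I, ρ (a i) = S at *
    obtain ⟨n1, n2, n3⟩ := num b m
    rw [show b + 1 + m = m + b + 1 by omega]
    have hw := one_le_w (b + 1)
    have hρ := one_le_ρ (b + 1)
    have e1 := mul_le_mul_of_nonneg_left h1 (zero_le_one.trans hw)
    have e2 := mul_le_mul_of_nonneg_left h2 (zero_le_one.trans hw)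
    have e3 := mul_le_mul_of_nonneg_left e1 (sub_nonneg.2 hρ)
    refine ⟨?_, ?_, ?_⟩ <;> linarith

theorem φ_le : ∀ m, φ m ≤ w (m + 1) * ρ (m + 1)
  | 0 => by norm_num [w, φ, ρ]
  | 1 => by norm_num [w, φ, ρ]
  | 2 => by norm_num [w, φ, ρ]
  | k + 3 => by rw [φw]; simp only [ρ]; linarith

theorem two_le : ∀ m, w m * (w (m + 1 + 1) - 1) ≤ w (m + 1) * w (m + 1)
  | 0 => by norm_num [w]
  | 1 => by norm_num [w]
  | 2 => by have := r_hi; norm_num [w]; linarith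
  | k + 3 => by
    have := one_le_pow k
    rw [show k + 3 + 1 + 1 = k + 5 from rfl, show k + 3 + 1 = k + 4 from rfl, w3 k, w4 k, w5 k]
    have : 3 * (r ^ k * r) * (3 * (r ^ k * r)) = 9 * (r ^ k * r ^ k) * (r * r) := by ring
    rw [this, r_sq]
    linarith

theorem w_sq (k : ℕ) : w (k + 3) ^ 2 = 3 ^ (k + 2) := by
  rw [w3, mul_pow, ← pow_mul, mul_comm k 2, pow_mul, sq r, r_sq]; ring

end CL.KQ
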