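import Cfsg.Agent.PERM.KQ.Num

/-! Orbit weights and transversals of conjugacy classes. -/

set_option autoImplicit false

namespace CL.KQ

open Finset MulAction Equiv

variable {Ω : Type*} [Fintype Ω] [DecidableEq Ω] {H K K' : Subgroup (Perm Ω)} {x y : Ω}
  {Y Z : Finset Ω}

open Classical in
/-- the orbit as a finset. -/
noncomputable def o (H : Subgroup (Perm Ω)) (x : Ω) : Finset Ω := univ.filter fun y => ∃ h ∈ H, h x = y

theorem mem_o : y ∈ o H x ↔ ∃ h ∈ H, h x = y := by simp [o]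

theorem self_mem_o (H : Subgroup (Perm Ω)) (x : Ω) : x ∈ o H x := mem_o.2 ⟨1, H.one_mem, rfl⟩

theorem o_eq (h : y ∈ o H x) : o H y = o H x := by
  obtain ⟨l, hh, rfl⟩ := mem_o.1 h
  ext z
  simp only [mem_o]
  exact ⟨fun ⟨k, hk, e⟩ => ⟨k * l, mul_mem hk hh, e⟩,
    fun ⟨k, hk, e⟩ => ⟨k * l⁻¹, mul_mem hk (inv_mem hh), by simpa using e⟩⟩

/-- invariant finsets. -/
def Iv (H : Subgroup (Perm Ω)) (Y : Finset Ω) : Prop := ∀ h ∈ H, ∀ y ∈ Y, h y ∈ Y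

theorem iv_o (H : Subgroup (Perm Ω)) (x : Ω) : Iv H (o H x) := fun h hh y hy => by
  obtain ⟨k, hk, rfl⟩ := mem_o.1 hy
  exact mem_o.2 ⟨h * k, mul_mem hh hk, rfl⟩

omit [Fintype Ω] [DecidableEq Ω] in
theorem Iv.mono (h : Iv K Y) (hH : H ≤ K) : Iv H Y := fun k hk => h k (hH hk)

omit [DecidableEq Ω] in
theorem iv_univ (H : Subgroup (Perm Ω)) : Iv H univ := fun _ _ _ _ => mem_univ _

omit [Fintype Ω] in
theorem Iv.sdiff (hY : Iv H Y) (hZ : Iv H Z) : Iv H (Y \ Z) := fun h hh y hy =>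
  mem_sdiff.2 ⟨hY h hh y (mem_sdiff.1 hy).1, fun e => (mem_sdiff.1 hy).2 (by
    simpa using hZ h⁻¹ (inv_mem hh) _ e)⟩

theorem Iv.sub (hY : Iv H Y) (hy : y ∈ Y) : o H y ⊆ Y := fun z hz => by
  obtain ⟨k, hk, rfl⟩ := mem_o.1 hz
  exact hY k hk y hy

theorem sum_card (hY : Iv H Y) : ∑ D ∈ Y.image (o H), D.card = Y.card := by
  rw [card_eq_sum_card_image (o H) Y]
  refine sum_congr rfl fun D hD => ?_
  obtain ⟨y, hy, rfl⟩ := mem_image.1 hD
  congr 1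
  ext z
  rw [mem_filter]
  exact ⟨fun h => ⟨hY.sub hy h, o_eq h⟩, fun h => h.2 ▸ self_mem_o H z⟩

/-- product of the orbit weights. -/
noncomputable def W (H : Subgroup (Perm Ω)) (Y : Finset Ω) : ℝ := ∏ D ∈ Y.image (o H), w D.card

/-- sum of the orbit factors. -/
noncomputable def Sg (H : Subgroup (Perm Ω)) (Y : Finset Ω) : ℝ := ∑ D ∈ Y.image (o H), ρ D.card

theorem one_le_W (H : Subgroup (Perm Ω)) (Y : Finset Ω) : 1 ≤ W H Y :=
  prod_induction _ (fun t => 1 ≤ t) (fun _ _ => one_le_mul_of_one_le_of_one_le) le_rfl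
    fun _ _ => one_le_w _

theorem W_nn (H : Subgroup (Perm Ω)) (Y : Finset Ω) : 0 ≤ W H Y := zero_le_one.trans (one_le_W H Y)

theorem Sg_nn (H : Subgroup (Perm Ω)) (Y : Finset Ω) : 0 ≤ Sg H Y :=
  sum_nonneg fun _ _ => zero_le_one.trans (one_le_ρ _)

theorem W_split (hZ : Iv H Z) (h : Z ⊆ Y) : W H Y = W H Z * W H (Y \ Z) := by
  unfold W
  rw [← prod_union, ← image_union, union_sdiff_of_subset h]
  refine disjoint_left.2 fun D h1 h2 => ?_
  obtain ⟨z, hz, rfl⟩ := mem_image.1 h1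
  obtain ⟨y, hy, e⟩ := mem_image.1 h2
  exact (mem_sdiff.1 hy).2 (hZ.sub hz (e ▸ self_mem_o H y))

theorem image_o (H : Subgroup (Perm Ω)) (x : Ω) : (o H x).image (o H) = {o H x} :=
  eq_singleton_iff_unique_mem.2 ⟨mem_image_of_mem _ (self_mem_o H x), fun D hD => by
    obtain ⟨y, hy, rfl⟩ := mem_image.1 hD
    exact o_eq hy⟩

theorem W_o (H : Subgroup (Perm Ω)) (x : Ω) : W H (o H x) = w (o H x).card := by
  rw [W, image_o, prod_singleton]

theorem W_parts (hY : Iv H Y) : W H Y ≤ w Y.card ∧ W H Y * (1 + Sg H Y) ≤ φ Y.card ∧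
    W H Y * Sg H Y ≤ w (Y.card + 1) - 1 := by
  rw [← sum_card hY]
  refine parts _ card fun D hD => ?_
  obtain ⟨y, -, rfl⟩ := mem_image.1 hD
  exact card_pos.2 ⟨y, self_mem_o H y⟩

theorem W_mono (hH : H ≤ K) (Y : Finset Ω) (hY : Iv K Y) : W H Y ≤ W K Y := by
  induction Y using Finset.strongInduction with
  | H Y ih =>
    rcases Y.eq_empty_or_nonempty with rfl | ⟨y, hy⟩
    · simp [W]
    rw [W_split ((iv_o K y).mono hH) (hY.sub hy), W_split (iv_o K y) (hY.sub hy), W_o]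
    exact mul_le_mul (W_parts ((iv_o K y).mono hH)).1
      (ih _ (sdiff_ssubset (hY.sub hy) ⟨y, self_mem_o K y⟩) (hY.sdiff (iv_o K y))) (W_nn _ _)
      (zero_le_one.trans (one_le_w _))

theorem o_fix (h : ∀ k ∈ H, k x = x) : o H x = {x} :=
  eq_singleton_iff_unique_mem.2 ⟨self_mem_o H x, fun y hy => by
    obtain ⟨k, hk, rfl⟩ := mem_o.1 hy
    exact h k hk⟩

theorem W_fix (h : ∀ k ∈ H, ∀ y ∈ Y, k y = y) : W H Y = 1 :=
  prod_eq_one fun D hD => by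
    obtain ⟨y, hy, rfl⟩ := mem_image.1 hD
    rw [o_fix fun k hk => h k hk y hy, card_singleton]
    rfl

theorem o_conj {g : Perm Ω} (hK : ∀ k, k ∈ K' ↔ g * k * g⁻¹ ∈ K) (x : Ω) :
    o K (g x) = (o K' x).image g := by
  ext y
  simp only [mem_o, mem_image]
  constructor
  · rintro ⟨k, hk, rfl⟩
    exact ⟨_, ⟨g⁻¹ * k * g, (hK _).2 (by simpa [mul_assoc] using hk), rfl⟩, by simp⟩
  · rintro ⟨_, ⟨k, hk, rfl⟩, rfl⟩
    exact ⟨_, (hK k).1 hk, by simp⟩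

theorem W_conj {g : Perm Ω} (hK : ∀ k, k ∈ K' ↔ g * k * g⁻¹ ∈ K) : W K univ = W K' univ := by
  have e : univ.image (o K) = (univ.image (o K')).image (image g) := by
    rw [image_image, ← image_univ_equiv g, image_image, image_univ_equiv g]
    exact image_congr fun x _ => o_conj hK x
  rw [W, W, e, prod_image fun a _ b _ h => image_injective g.injective h]
  exact prod_congr rfl fun D _ => by rw [card_image_of_injective _ g.injective]

omit [Fintype Ω] [DecidableEq Ω] in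
theorem card_conj {g : Perm Ω} (hK : ∀ k, k ∈ K' ↔ g * k * g⁻¹ ∈ K) : Nat.card K' = Nat.card K :=
  Nat.card_congr ((MulAut.conj g).toEquiv.subtypeEquiv hK)

theorem card_o (K : Subgroup (Perm Ω)) (x : Ω) :
    Nat.card (K ⊓ stabilizer (Perm Ω) x : Subgroup (Perm Ω)) * (o K x).card = Nat.card K := by
  have h1 : (orbit K x).ncard = (o K x).card := by
    rw [← Set.ncard_coe_finset]
    congr 1
    ext y
    rw [mem_coe, mem_o]
    exact ⟨fun ⟨k, e⟩ => ⟨k, k.2, e⟩, fun ⟨k, hk, e⟩ => ⟨⟨k, hk⟩, e⟩⟩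
  rw [← h1, ← index_stabilizer, ← (stabilizer K x).card_mul_index,
    ← Nat.card_congr (Subgroup.subgroupOfEquivOfLe
      (inf_le_left : K ⊓ stabilizer (Perm Ω) x ≤ K)).toEquiv, Subgroup.inf_subgroupOf_left]
  rfl

/-- `X` is covered by at most `t` classes under `H`. -/
def Cov (H : Subgroup (Perm Ω)) (X : Set (Perm Ω)) (t : ℝ) : Prop :=
  ∃ T : Finset (Perm Ω), (T.card : ℝ) ≤ t ∧ ∀ x ∈ X, ∃ y ∈ T, ∃ h ∈ H, h * y * h⁻¹ = x

omit [Fintype Ω] [DecidableEq Ω] in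
theorem Cov.mono {X X' : Set (Perm Ω)} {t t' : ℝ} (h : Cov H X t) (hH : H ≤ K)
    (hX : ∀ x ∈ X', ∃ y ∈ X, ∃ h ∈ K, h * y * h⁻¹ = x) (ht : t ≤ t') : Cov K X' t' := by
  obtain ⟨T, h1, h2⟩ := h
  refine ⟨T, h1.trans ht, fun x hx => ?_⟩
  obtain ⟨y, hy, k, hk, rfl⟩ := hX x hx
  obtain ⟨z, hz, l, hl, rfl⟩ := h2 y hy
  exact ⟨z, hz, k * l, mul_mem hk (hH hl), by group⟩

theorem Cov.sum {ι : Type*} (I : Finset ι) (X : ι → Set (Perm Ω)) (t : ι → ℝ)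
    (h : ∀ i ∈ I, Cov H (X i) (t i)) : Cov H {x | ∃ i ∈ I, x ∈ X i} (∑ i ∈ I, t i) := by
  choose! T h1 h2 using h
  refine ⟨I.biUnion T, le_trans ?_ (sum_le_sum h1), ?_⟩
  · exact_mod_cast card_biUnion_le
  · rintro x ⟨i, hi, hx⟩
    obtain ⟨y, hy, e⟩ := h2 i hi x hx
    exact ⟨y, mem_biUnion.2 ⟨i, hi, hy⟩, e⟩

theorem Cov.union {X X' : Set (Perm Ω)} {t t' : ℝ} (h : Cov H X t) (h' : Cov H X' t') :
    Cov H (X ∪ X') (t + t') := by
  obtain ⟨T, h1, h2⟩ := h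
  obtain ⟨T', h1', h2'⟩ := h'
  refine ⟨T ∪ T', le_trans ?_ (add_le_add h1 h1'), ?_⟩
  · exact_mod_cast card_union_le T T'
  · rintro x (hx | hx)
    · obtain ⟨y, hy, e⟩ := h2 x hx
      exact ⟨y, mem_union_left _ hy, e⟩
    · obtain ⟨y, hy, e⟩ := h2' x hx
      exact ⟨y, mem_union_right _ hy, e⟩

omit [Fintype Ω] [DecidableEq Ω] in
theorem Cov.empty {X : Set (Perm Ω)} {t : ℝ} (hX : ¬ X.Nonempty) (ht : 0 ≤ t) : Cov H X t :=
  ⟨∅, by simpa using ht, fun x hx => absurd ⟨x, hx⟩ hX⟩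

theorem Cov.card {t : ℝ} (h : Cov H H t) : (Nat.card (ConjClasses H) : ℝ) ≤ t := by
  classical
  obtain ⟨T, h1, h2⟩ := h
  refine le_trans ?_ h1
  rw [Nat.cast_le, ← Nat.card_eq_finsetCard]
  refine Nat.card_le_card_of_surjective
    (fun y : T => if hy : y.1 ∈ H then ConjClasses.mk ⟨y, hy⟩ else 1) fun C => ?_
  obtain ⟨x, rfl⟩ := ConjClasses.mk_surjective C
  obtain ⟨y, hy, k, hk, e⟩ := h2 x x.2
  have hy' : y ∈ H := by
    have := mul_mem (mul_mem (inv_mem hk) x.2) hk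
    rw [← e] at this
    simpa [mul_assoc] using this
  refine ⟨⟨y, hy⟩, ?_⟩
  simp only [hy', dif_pos]
  exact ConjClasses.mk_eq_mk_iff_isConj.2 (isConj_iff.2 ⟨⟨k, hk⟩, Subtype.ext e⟩)

end CL.KQ
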